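import Cfsg.Agent.H466.T3.Gelfand
import Cfsg.Agent.H113.Cusp.Tool
import Cfsg.Agent.Characters.CentralCharacter

/-!
# S4884, own characteristic (helper654): multiplicity one for a parabolic subgroup of semisimple rank one

`P = M Z V`, `V` normal, `Z` central modulo `V`; an irreducible character `μ` of `P` trivial on `V` stays irreducible on
`M` (`irr_restrict`).  `M = X T ∪ X n T X` of rank one, `(n t) ^ 2 = 1` on the torus `T` of `M`, a real linear character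
`lam` of `U = X V` trivial on `V` and moved by all `t ≠ 1` in `T` : `⟨μ_U, lam⟩ ∈ {0, 1}` (`gg_abs`).
-/

set_option autoImplicit false
set_option linter.unusedSectionVars false

open scoped ComplexConjugate

namespace Cfsg.Agent.H654.OF

open Cfsg Cfsg.Agent.Characters

universe u

variable {G : Type u} [Group G]

/-- the restriction to `M` is irreducible -/
theorem irr_restrict {P M Z V : Subgroup G} [Finite P] (hMP : M ≤ P) (hZP : Z ≤ P) (hVP : V ≤ P)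
    (hV : ∀ g ∈ P, ∀ v ∈ V, g * v * g⁻¹ ∈ V) (hform : ∀ g ∈ P, ∃ m ∈ M, ∃ z ∈ Z, ∃ v ∈ V, g = m * z * v)
    (hZM : ∀ z ∈ Z, ∀ m ∈ M, z * m = m * z) (hZZ : ∀ z ∈ Z, ∀ w ∈ Z, z * w = w * z) {μ : ↥P → ℂ}
    (hμ : IsIrrCharacter ↥P μ) (htr : ∀ g v : ↥P, (v : G) ∈ V → μ (g * v) = μ g) :
    IsIrrCharacter ↥M (μ ∘ Subgroup.inclusion hMP) := by
  obtain ⟨n, ρ, hρ, rfl⟩ := hμ
  refine ⟨n, ρ.comp (Subgroup.inclusion hMP), ?_, rfl⟩
  have hVn : (V.subgroupOf P).Normal := ⟨fun v hv g => by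
    rw [Subgroup.mem_subgroupOf] at hv ⊢
    exact hV g g.2 v hv⟩
  have h1 : ∀ v : ↥P, (v : G) ∈ V → ρ v = 1 := fun v hv =>
    H113.Cusp.Tool.rho_eq_one_of_char hρ hVn (fun x hx => by
      have := htr 1 x (Subgroup.mem_subgroupOf.1 hx)
      rwa [one_mul] at this) (Subgroup.mem_subgroupOf.2 hv)
  have h2 : ∀ z : ↥P, (z : G) ∈ Z → ∃ c : ℂ, ρ z = c • (LinearMap.id : (Fin n → ℂ) →ₗ[ℂ] (Fin n → ℂ)) := by
    intro z hz
    refine CentralCharacter.exists_scalar_of_commute ρ (ρ z) fun g v => ?_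
    obtain ⟨m, hm, w, hw, x, hx, e⟩ := hform g g.2
    have e' : g = ⟨m, hMP hm⟩ * ⟨w, hZP hw⟩ * ⟨x, hVP hx⟩ := Subtype.ext e
    have h3 : z * (⟨m, hMP hm⟩ * ⟨w, hZP hw⟩) = ⟨m, hMP hm⟩ * ⟨w, hZP hw⟩ * z := Subtype.ext (by
      show (z : G) * (m * w) = m * w * z
      rw [← mul_assoc, hZM z hz m hm, mul_assoc, hZZ z hz w hw, mul_assoc])
    have h4 : ρ g = ρ (⟨m, hMP hm⟩ * ⟨w, hZP hw⟩) := by
      rw [e']
      exact (map_mul ρ (⟨m, hMP hm⟩ * ⟨w, hZP hw⟩ : ↥P) ⟨x, hVP hx⟩).trans (by rw [h1 ⟨x, hVP hx⟩ hx, mul_one])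
    rw [h4, ← Module.End.mul_apply, ← map_mul, h3, map_mul, Module.End.mul_apply]
  have hnt : Nontrivial (Subrepresentation (ρ.comp (Subgroup.inclusion hMP))) := by
    obtain ⟨a, b, hab⟩ := hρ.toNontrivial
    refine ⟨⟨a.toSubmodule, fun g v hv => a.apply_mem_toSubmodule (Subgroup.inclusion hMP g) hv⟩,
      ⟨b.toSubmodule, fun g v hv => b.apply_mem_toSubmodule (Subgroup.inclusion hMP g) hv⟩, fun h => hab ?_⟩
    apply Subrepresentation.toSubmodule_injective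
    exact congrArg (Subrepresentation.toSubmodule (ρ := ρ.comp (Subgroup.inclusion hMP))) h
  refine ⟨fun a => ?_⟩
  have key : ∀ (g : ↥P) ⦃v : Fin n → ℂ⦄, v ∈ a.toSubmodule → ρ g v ∈ a.toSubmodule := by
    intro g v hv
    obtain ⟨m, hm, w, hw, x, hx, e⟩ := hform g g.2
    have e' : g = ⟨m, hMP hm⟩ * ⟨w, hZP hw⟩ * ⟨x, hVP hx⟩ := Subtype.ext e
    obtain ⟨c, hc⟩ := h2 ⟨w, hZP hw⟩ hw
    have h4 : ρ g = ρ ⟨m, hMP hm⟩ * (c • (LinearMap.id : (Fin n → ℂ) →ₗ[ℂ] (Fin n → ℂ))) := by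
      rw [e', ← hc, ← map_mul]
      exact (map_mul ρ (⟨m, hMP hm⟩ * ⟨w, hZP hw⟩ : ↥P) ⟨x, hVP hx⟩).trans (by rw [h1 ⟨x, hVP hx⟩ hx, mul_one])
    rw [h4]
    show ρ _ (c • v) ∈ _
    rw [map_smul]
    exact Submodule.smul_mem _ _ (a.apply_mem_toSubmodule (⟨m, hm⟩ : ↥M) hv)
  rcases hρ.eq_bot_or_eq_top ⟨a.toSubmodule, key⟩ with h | h
  · left
    apply Subrepresentation.toSubmodule_injective
    exact congrArg (Subrepresentation.toSubmodule (ρ := ρ)) h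
  · right
    apply Subrepresentation.toSubmodule_injective
    exact congrArg (Subrepresentation.toSubmodule (ρ := ρ)) h

/-- **multiplicity one** -/
theorem gg_abs {P M Z V X U T : Subgroup G} {n : G} [Finite P] [Fintype U] (hMP : M ≤ P) (hZP : Z ≤ P) (hUP : U ≤ P)
    (hVU : V ≤ U) (hXU : X ≤ U) (hXM : X ≤ M)
    (hV : ∀ g ∈ P, ∀ v ∈ V, g * v * g⁻¹ ∈ V) (hform : ∀ g ∈ P, ∃ m ∈ M, ∃ z ∈ Z, ∃ v ∈ V, g = m * z * v)
    (hZM : ∀ z ∈ Z, ∀ m ∈ M, z * m = m * z) (hZZ : ∀ z ∈ Z, ∀ w ∈ Z, z * w = w * z)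
    (hU : ∀ u ∈ U, ∃ x ∈ X, ∃ v ∈ V, u = x * v) (hXV : ∀ x ∈ X, x ∈ V → x = 1)
    (hbru : ∀ m ∈ M, (∃ x ∈ X, ∃ t ∈ T, m = x * t) ∨ ∃ x ∈ X, ∃ t ∈ T, ∃ y ∈ X, m = x * (n * t) * y)
    (hnt : ∀ t ∈ T, n * t * (n * t) = 1) {μ : ↥P → ℂ}
    (hμ : IsIrrCharacter ↥P μ) (htr : ∀ g v : ↥P, (v : G) ∈ V → μ (g * v) = μ g) (lam : ↥U →* ℂˣ)
    (hlV : ∀ u : ↥U, (u : G) ∈ V → lam u = 1) (hsq : ∀ u : ↥U, lam u * lam u = 1)
    (hreg : ∀ t ∈ T, t ≠ 1 → ∃ (x : G) (hx : x ∈ X) (hx' : t⁻¹ * x * t ∈ X), lam ⟨t⁻¹ * x * t, hXU hx'⟩ ≠ lam ⟨x, hXU hx⟩) :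
    classInner (fun u : ↥U => μ ⟨u, hUP u.2⟩) (fun u : ↥U => (lam u : ℂ)) = 0 ∨
      classInner (fun u : ↥U => μ ⟨u, hUP u.2⟩) (fun u : ↥U => (lam u : ℂ)) = 1 := by
  classical
  have hfM : Finite ↥M := Finite.of_injective _ (Subgroup.inclusion_injective hMP)
  have hfX : Finite ↥X := Finite.of_injective _ (Subgroup.inclusion_injective hXM)
  have hfV : Finite ↥V := Finite.of_injective _ (Subgroup.inclusion_injective hVU)
  have := Fintype.ofFinite ↥M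
  have := Fintype.ofFinite ↥X
  have := Fintype.ofFinite ↥V
  have hirr := irr_restrict hMP hZP (hVU.trans hUP) hV hform hZM hZZ hμ htr
  -- reduction to `X`
  have hred : classInner (fun u : ↥U => μ ⟨u, hUP u.2⟩) (fun u : ↥U => (lam u : ℂ)) =
      classInner ((μ ∘ Subgroup.inclusion hMP) ∘ (Subgroup.inclusion hXM))
        (fun a : ↥X => ((lam.comp (Subgroup.inclusion hXU)) a : ℂ)) := by
    have e : ↥X × ↥V ≃ ↥U := Equiv.ofBijective
      (fun p => (⟨(p.1 : G) * p.2, mul_mem (hXU p.1.2) (hVU p.2.2)⟩ : ↥U)) ⟨by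
        rintro ⟨x, v⟩ ⟨y, w⟩ h
        have h1 : (x : G) * v = y * w := congrArg Subtype.val h
        have h2 : (y : G)⁻¹ * x = w * (v : G)⁻¹ := by
          rw [inv_mul_eq_iff_eq_mul, ← mul_assoc, ← h1, mul_inv_cancel_right]
        have h3 : (y : G)⁻¹ * x = 1 := hXV _ (mul_mem (inv_mem y.2) x.2) (h2 ▸ mul_mem w.2 (inv_mem v.2))
        have h4 : x = y := Subtype.ext (inv_mul_eq_one.1 h3).symm
        subst h4
        exact Prod.ext rfl (Subtype.ext (mul_left_cancel h1)), by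
        rintro ⟨u, hu⟩
        obtain ⟨x, hx, v, hv, rfl⟩ := hU u hu
        exact ⟨⟨⟨x, hx⟩, ⟨v, hv⟩⟩, rfl⟩⟩
    have hsum : ∑ u : ↥U, μ ⟨u, hUP u.2⟩ * conj (lam u : ℂ) =
        (Fintype.card ↥V : ℂ) * ∑ x : ↥X, μ ⟨x, hUP (hXU x.2)⟩ * conj (lam ⟨x, hXU x.2⟩ : ℂ) := by
      let e' : ↥X × ↥V ≃ ↥U := Equiv.ofBijective
        (fun p => (⟨(p.1 : G) * p.2, mul_mem (hXU p.1.2) (hVU p.2.2)⟩ : ↥U)) ⟨by
          rintro ⟨x, v⟩ ⟨y, w⟩ h
          have h1 : (x : G) * v = y * w := congrArg Subtype.val h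
          have h2 : (y : G)⁻¹ * x = w * (v : G)⁻¹ := by
            rw [inv_mul_eq_iff_eq_mul, ← mul_assoc, ← h1, mul_inv_cancel_right]
          have h3 : (y : G)⁻¹ * x = 1 := hXV _ (mul_mem (inv_mem y.2) x.2) (h2 ▸ mul_mem w.2 (inv_mem v.2))
          have h4 : x = y := Subtype.ext (inv_mul_eq_one.1 h3).symm
          subst h4
          exact Prod.ext rfl (Subtype.ext (mul_left_cancel h1)), by
          rintro ⟨u, hu⟩
          obtain ⟨x, hx, v, hv, rfl⟩ := hU u hu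
          exact ⟨⟨⟨x, hx⟩, ⟨v, hv⟩⟩, rfl⟩⟩
      rw [← e'.sum_comp, Fintype.sum_prod_type, Finset.mul_sum]
      refine Finset.sum_congr rfl fun x _ => ?_
      rw [← Finset.card_univ, ← nsmul_eq_mul, ← Finset.sum_const]
      refine Finset.sum_congr rfl fun v _ => ?_
      have h1 : lam (e' (x, v)) = lam ⟨x, hXU x.2⟩ := by
        have : e' (x, v) = ⟨x, hXU x.2⟩ * ⟨v, hVU v.2⟩ := rfl
        rw [this, map_mul, hlV ⟨v, hVU v.2⟩ v.2, mul_one]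
      rw [h1]
      congr 1
      exact htr ⟨x, hUP (hXU x.2)⟩ ⟨v, hUP (hVU v.2)⟩ v.2
    have hc : (Fintype.card ↥U : ℂ) = Fintype.card ↥V * Fintype.card ↥X := by
      rw [← Fintype.card_congr e, Fintype.card_prod, Nat.cast_mul, mul_comm]
    rw [OddOrderCharacters.Clifford.classInner_apply, OddOrderCharacters.Clifford.classInner_apply, hsum, Nat.card_eq_fintype_card, Nat.card_eq_fintype_card, hc, mul_inv,
      mul_assoc]
    have hv0 : (Fintype.card ↥V : ℂ) ≠ 0 := by exact_mod_cast Fintype.card_ne_zero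
    rw [← mul_assoc (Fintype.card ↥X : ℂ)⁻¹, mul_comm (Fintype.card ↥X : ℂ)⁻¹ (Fintype.card ↥V : ℂ), mul_assoc,
      inv_mul_cancel_left₀ hv0]
    rfl
  rw [hred]
  have hmem : ∀ x : ↥X, lam ⟨x, hXU x.2⟩ = (lam.comp (Subgroup.inclusion hXU)) x := fun x => rfl
  refine H466.T3.Gelfand.mult_le_one (Subgroup.inclusion hXM) (lam.comp (Subgroup.inclusion hXU)) (fun g => g⁻¹)
    (Equiv.inv ↥X) (fun x y => mul_inv_rev x y) (fun a => rfl) (fun a => ?_) (fun g => ?_) hirr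
  · show lam (Subgroup.inclusion hXU a⁻¹) = lam (Subgroup.inclusion hXU a)
    rw [map_inv, map_inv]
    exact (eq_inv_of_mul_eq_one_left (hsq _)).symm
  · rcases hbru g g.2 with ⟨x, hx, t, ht, e⟩ | ⟨x, hx, t, ht, y, hy, e⟩
    · by_cases h1 : t = 1
      · left
        subst h1
        refine ⟨⟨x, hx⟩⁻¹, ⟨x, hx⟩⁻¹, Subtype.ext ?_, ?_⟩
        · show (g : G)⁻¹ = x⁻¹ * g * x⁻¹
          rw [e]; group
        · exact hsq _
      · right
        obtain ⟨y, hy, hy', hne⟩ := hreg t ht h1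
        refine ⟨⟨x * y * x⁻¹, mul_mem (mul_mem hx hy) (inv_mem hx)⟩, ⟨t⁻¹ * y * t, hy'⟩, Subtype.ext ?_, ?_⟩
        · show x * y * x⁻¹ * g = g * (t⁻¹ * y * t)
          rw [e]; group
        · intro h
          apply hne
          have h2 : lam ⟨x * y * x⁻¹, hXU (mul_mem (mul_mem hx hy) (inv_mem hx))⟩ = lam ⟨y, hXU hy⟩ := by
            have e2 : (⟨x * y * x⁻¹, hXU (mul_mem (mul_mem hx hy) (inv_mem hx))⟩ : ↥U) =
                ⟨x, hXU hx⟩ * ⟨y, hXU hy⟩ * ⟨x, hXU hx⟩⁻¹ := rfl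
            rw [e2, map_mul, map_mul, map_inv, mul_comm (lam _) (lam ⟨y, _⟩), mul_inv_cancel_right]
          exact h.symm.trans h2
    · left
      refine ⟨⟨y⁻¹ * x⁻¹, mul_mem (inv_mem hy) (inv_mem hx)⟩, ⟨y⁻¹ * x⁻¹, mul_mem (inv_mem hy) (inv_mem hx)⟩,
        Subtype.ext ?_, hsq _⟩
      show (g : G)⁻¹ = y⁻¹ * x⁻¹ * g * (y⁻¹ * x⁻¹)
      have h1 : (n * t)⁻¹ = n * t := inv_eq_of_mul_eq_one_left (hnt t ht)
      rw [e, mul_inv_rev, mul_inv_rev, h1]; group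

end Cfsg.Agent.H654.OF
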